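import Cfsg.Agent.H0.TC
set_option maxRecDepth 100000
namespace H0.TCL282
open H0
noncomputable def tS : Tr := (.leaf (nat_lit 0x3f852fd1a7f6c9fc86bf480fc047f248))
noncomputable def tJ : Tr := (.leaf (nat_lit 0xb220003220003218000))
noncomputable def tQ : Tr := (.leaf (nat_lit 0x0))
noncomputable def tR : TC.WTr := (.node (.node (.leaf [1] 0 0 false) (.leaf [0] 0 1 false)) (.node (.leaf [1] 0 0 false) (.leaf [1, 1, 1, 1, 1, 1] 2 0 true)))
def hl : List ℕ := []
def B : List (List ℕ) := [[0, 1], [1, 0], [0, 0, 0, 0, 0, 0, 0]]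
def subs : List (List ℕ) := []
def ex : List (List ℕ) := []
def inv (x : ℕ) : ℕ := [1, 0].getD x 0
noncomputable def rS : ℕ → ℕ := rowOf tS (nat_lit 10) (nat_lit 1023) (nat_lit 18) (nat_lit 262143)
noncomputable def rJ : ℕ → ℕ := rowOf tJ (nat_lit 10) (nat_lit 1023) (nat_lit 12) (nat_lit 4095)
noncomputable def C : TC.Cfg where
  S := look rS (nat_lit 6) (nat_lit 63)
  J := look rJ (nat_lit 3) (nat_lit 7)
  Q := lookQ tQ (nat_lit 10) (nat_lit 1) (nat_lit 1)
  R := tR.get
  hl := fun x => hl.contains x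
  n := (nat_lit 7)
  M := (nat_lit 7)
  top := (nat_lit 42)
  nl := (nat_lit 2)
  need := (nat_lit 2)
  nr := (nat_lit 2)
theorem k0 : TC.chkRange C 0 1 = true := by decide +kernel
theorem rows0 : ∀ c < (0 + 1) * 64, c < C.M → TC.chkRow C c = true :=
  TC.rows_step (TC.rows_zero C) k0
theorem main {G : Type*} [Group G] (g : ℕ → G) (hB : ∀ r ∈ B, ev g r = 1) (H : Subgroup G)
    (hH : ∀ w ∈ subs, ev g w ∈ H) :
    H.relIndex (Subgroup.closure (g '' {x | x < 2})) ≠ 0 ∧
      H.relIndex (Subgroup.closure (g '' {x | x < 2})) ≤ 7 :=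
  TC.index_le C B subs ex inv hl tR.hint rfl (by decide +kernel) (by decide +kernel)
    (TC.rows_done rows0 (by decide +kernel)) g hB H hH
end H0.TCL282
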